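import Cfsg.Agent.Lib.Helper89.MCK.Defs
import Cfsg.Agent.Lib.Helper60.CdTwo
import Cfsg.Agent.S0133

set_option autoImplicit false
set_option linter.unusedSectionVars false
set_option linter.unusedVariables false

namespace Cfsg.Agent.Lib.Helper89.MCK

open Cfsg

/-- ABN. -/
theorem mk_eq_classes {X : Type*} [Group X] [Finite X] (ℓ : ℕ) (A : Subgroup X) [A.Normal]
    (hA : ∀ a ∈ A, ∀ b ∈ A, a * b = b * a) (h : ¬ ℓ ∣ A.index) : mk ℓ X = Nat.card (ConjClasses X) := by
  rw [← Cfsg.Agent.S0133.result]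
  unfold mk
  apply Nat.card_congr
  apply Equiv.subtypeUnivEquiv
  intro χ hd
  exact h (hd.trans (Cfsg.Agent.Lib.Helper60.Cd.ito A hA χ))

end Cfsg.Agent.Lib.Helper89.MCK
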