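import Cfsg.Agent.Lib.Helper46.SL2CharQuad

set_option autoImplicit false
set_option linter.unusedSectionVars false
set_option linter.unusedVariables false

namespace Cfsg.Agent.Lib.Helper89.MCK

open Matrix Cfsg Cfsg.Agent.Lib.Helper46

variable {F : Type*} [Field F] [Fintype F] [DecidableEq F]

/-- CNTA. -/
theorem card_alpha (hodd : Fintype.card F % 2 = 1) :
    Nat.card {α : MulChar F ℂ // α ≠ α⁻¹} + 3 = Fintype.card F := by
  classical
  have h2 : (2 : F) ≠ 0 := by
    intro h
    haveI : CharP F 2 := CharTwo.of_one_ne_zero_of_two_eq_zero one_ne_zero h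
    have := FiniteField.even_card_of_char_two (ringChar.eq F 2)
    omega
  have hcard : Nat.card (MulChar F ℂ) = Fintype.card F - 1 := by
    rw [MulChar.card_eq_card_units_of_hasEnoughRootsOfUnity F ℂ, Nat.card_eq_fintype_card,
      Fintype.card_units]
  have hq : 1 < Fintype.card F := Fintype.one_lt_card
  have hsplit : Nat.card {α : MulChar F ℂ // α = α⁻¹} + Nat.card {α : MulChar F ℂ // α ≠ α⁻¹} =
      Nat.card (MulChar F ℂ) := by
    have := Nat.card_congr (Equiv.sumCompl (fun α : MulChar F ℂ => α = α⁻¹))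
    rw [Nat.card_sum] at this
    exact this
  have htwo : Nat.card {α : MulChar F ℂ // α = α⁻¹} = 2 := by
    rw [Nat.card_eq_two_iff]
    refine ⟨⟨1, by simp⟩, ⟨alpha0 F, alpha0_inv⟩, ?_, ?_⟩
    · intro h
      exact alpha0_ne_one h2 (congrArg Subtype.val h).symm
    · ext ⟨α, hα⟩
      simp only [Set.mem_insert_iff, Set.mem_singleton_iff, Set.mem_univ, iff_true,
        Subtype.mk.injEq]
      by_cases h1 : α = 1
      · exact Or.inl h1
      · exact Or.inr (eq_alpha0 hα h1)
  omega

end Cfsg.Agent.Lib.Helper89.MCK
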