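import Mathlib

set_option autoImplicit false
set_option linter.unusedSectionVars false
set_option linter.unusedVariables false

namespace Cfsg.Agent.Lib.Helper89.MCK

/-- HALF.  A map constant on the orbits of a fixed-point-free self-map has a range of at most half the size. -/
theorem half {A B : Type*} [Finite A] (f : A → B) (σ : A → A) (hσ : ∀ a, σ a ≠ a) (hf : ∀ a, f (σ a) = f a) :
    2 * (Set.range f).ncard ≤ Nat.card A := by
  classical
  haveI := Fintype.ofFinite A
  have hr : Set.range f = ((Finset.univ.image f : Finset B) : Set B) := by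
    simp
  rw [hr, Set.ncard_coe_finset, Nat.card_eq_fintype_card, ← Finset.card_univ,
    Finset.card_eq_sum_card_fiberwise (f := f) (t := Finset.univ.image f)
      (fun x _ => Finset.mem_coe.2 (Finset.mem_image_of_mem f (Finset.mem_univ x)))]
  have h := Finset.card_nsmul_le_sum (Finset.univ.image f)
    (fun b => (Finset.univ.filter (fun a => f a = b)).card) 2 (by
      intro b hb
      obtain ⟨a, -, rfl⟩ := Finset.mem_image.1 hb
      exact Finset.one_lt_card.2 ⟨a, by simp, σ a, by simp [hf], (hσ a).symm⟩)
  rw [smul_eq_mul, mul_comm] at h
  exact h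

end Cfsg.Agent.Lib.Helper89.MCK
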