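import Cfsg.Agent.Lib.Helper89.MCK.Defs
import Cfsg.Agent.Lib.Helper46.SL2CharMaster
import Cfsg.Agent.Lib.Helper89.MCK.HALF
import Cfsg.Agent.Lib.Helper89.MCK.CNTA

set_option autoImplicit false
set_option linter.unusedSectionVars false
set_option linter.unusedVariables false

namespace Cfsg.Agent.Lib.Helper89.MCK

open Matrix Cfsg Cfsg.Agent.Lib.Helper46 Cfsg.Agent.Lib.Helper19

section sl2

variable {F : Type*} [Field F] [Fintype F] [DecidableEq F]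
variable {X₀ : SpecialLinearGroup (Fin 2) F}

/-- B2 -/
theorem bound_RS (hodd : Fintype.card F % 2 = 1) :
    2 * {χ : SpecialLinearGroup (Fin 2) F → ℂ | ∃ α : MulChar F ℂ, α ≠ α⁻¹ ∧ χ = RS α}.ncard + 3 ≤ Fintype.card F := by
  classical
  have hinv : ∀ α : MulChar F ℂ, α ≠ α⁻¹ → α⁻¹ ≠ α⁻¹⁻¹ := by
    intro α hα h
    rw [inv_inv] at h
    exact hα h.symm
  have hRS : ∀ α : MulChar F ℂ, α ≠ α⁻¹ → RS α⁻¹ = RS α := by
    intro α hα
    apply eq_of_inner_ne_zero (RS_irr α⁻¹ (hinv α hα)) (RS_irr α hα)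
    rw [inner_RS_RS, if_neg (fun h => hα h.symm), if_pos rfl]
    norm_num
  have hh := half (A := {α : MulChar F ℂ // α ≠ α⁻¹})
    (fun a => RS a.1) (fun a => ⟨a.1⁻¹, hinv a.1 a.2⟩)
    (fun a h => a.2 (congrArg Subtype.val h).symm) (fun a => hRS a.1 a.2)
  have hset : Set.range (fun a : {α : MulChar F ℂ // α ≠ α⁻¹} => RS a.1) =
      {χ : SpecialLinearGroup (Fin 2) F → ℂ | ∃ α : MulChar F ℂ, α ≠ α⁻¹ ∧ χ = RS α} := by
    ext χ
    constructor
    · rintro ⟨a, rfl⟩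
      exact ⟨a.1, a.2, rfl⟩
    · rintro ⟨α, hα, rfl⟩
      exact ⟨⟨α, hα⟩, rfl⟩
  rw [hset] at hh
  have hc := card_alpha (F := F) hodd
  omega

end sl2

end Cfsg.Agent.Lib.Helper89.MCK
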