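import Cfsg.Agent.Lib.Helper89.MCK.Defs
import Cfsg.Agent.Lib.Helper46.SL2CharQuad

set_option autoImplicit false
set_option linter.unusedSectionVars false
set_option linter.unusedVariables false

namespace Cfsg.Agent.Lib.Helper89.MCK

open Matrix Cfsg Cfsg.Agent.Lib.Helper46 Cfsg.Agent.Lib.Helper19

section sl2

variable {F : Type*} [Field F] [Fintype F] [DecidableEq F]
variable {X₀ : SpecialLinearGroup (Fin 2) F}

/-- CNTT. -/
theorem card_theta (hodd : Fintype.card F % 2 = 1) (h : NS X₀)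
    {θ₀ : Subgroup.zpowers X₀ →* ℂˣ} (hθ₀ : θ₀ (gen X₀) = -1) :
    Nat.card {θ : Subgroup.zpowers X₀ →* ℂˣ // θ⁻¹ ≠ θ} + 1 = Fintype.card F := by
  classical
  have := finite_SL2 (F := F)
  have hfin := finite_hom h.comm'
  have hcard := card_hom h.comm'
  rw [h.hcard] at hcard
  have hsplit : Nat.card {θ : Subgroup.zpowers X₀ →* ℂˣ // θ⁻¹ = θ} +
      Nat.card {θ : Subgroup.zpowers X₀ →* ℂˣ // ¬ θ⁻¹ = θ} = Nat.card (Subgroup.zpowers X₀ →* ℂˣ) := by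
    rw [← Nat.card_sum]
    exact Nat.card_congr (Equiv.sumCompl (fun θ : Subgroup.zpowers X₀ →* ℂˣ => θ⁻¹ = θ))
  have h2 : Nat.card {θ : Subgroup.zpowers X₀ →* ℂˣ // θ⁻¹ = θ} = 2 := by
    rw [Nat.card_eq_two_iff]
    refine ⟨⟨1, by ext t; simp⟩, ⟨θ₀, theta0_inv hθ₀⟩, ?_, ?_⟩
    · intro hh
      exact theta0_ne_one hθ₀ (congrArg Subtype.val hh).symm
    · rw [Set.eq_univ_iff_forall]
      rintro ⟨θ, hθ⟩
      by_cases h1 : θ = 1
      · left; exact Subtype.ext h1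
      · right
        rw [Set.mem_singleton_iff]
        exact Subtype.ext (eq_theta0 hθ₀ hθ h1)
  have h3 : Nat.card {θ : Subgroup.zpowers X₀ →* ℂˣ // θ⁻¹ ≠ θ} =
      Nat.card {θ : Subgroup.zpowers X₀ →* ℂˣ // ¬ θ⁻¹ = θ} := rfl
  omega

end sl2

end Cfsg.Agent.Lib.Helper89.MCK
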