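import Cfsg.Agent.Lib.Helper89.MCK.Defs
import Cfsg.Agent.Lib.Helper89.MCK.HALF
import Cfsg.Agent.Lib.Helper89.MCK.CNTT
import Cfsg.Agent.Lib.Helper46.SL2CharMaster

set_option autoImplicit false
set_option linter.unusedSectionVars false
set_option linter.unusedVariables false

namespace Cfsg.Agent.Lib.Helper89.MCK

open Matrix Cfsg Cfsg.Agent.Lib.Helper46 Cfsg.Agent.Lib.Helper19

section sl2

variable {F : Type*} [Field F] [Fintype F] [DecidableEq F]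
variable {X₀ : SpecialLinearGroup (Fin 2) F}

theorem b3_inv_inv (θ : Subgroup.zpowers X₀ →* ℂˣ) : θ⁻¹⁻¹ = θ := by
  ext t
  simp [MonoidHom.inv_apply]

/-- `PI` does not depend on the compatible `α`, and is `inv`-invariant in `θ` -/
theorem b3_PI_eq (hodd : Fintype.card F % 2 = 1) (h : NS X₀) {α α' : MulChar F ℂ}
    {θ θ' : Subgroup.zpowers X₀ →* ℂˣ} (hc : Compat h α θ) (hc' : Compat h α' θ')
    (hθ : θ⁻¹ ≠ θ) (hθ' : θ'⁻¹ ≠ θ') (hh : θ' = θ ∨ θ'⁻¹ = θ) :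
    PI X₀ α' θ' = PI X₀ α θ := by
  classical
  apply eq_of_inner_ne_zero (PI_irr h hodd hc' hθ') (PI_irr h hodd hc hθ)
  rw [inner_PI_PI h hodd hc hc']
  rcases hh with hh | hh
  · rw [if_pos hh]
    split_ifs <;> norm_num
  · rw [if_pos hh]
    split_ifs <;> norm_num

/-- B3 -/
theorem bound_PI (hodd : Fintype.card F % 2 = 1) (h : NS X₀)
    {θ₀ : Subgroup.zpowers X₀ →* ℂˣ} (hθ₀ : θ₀ (gen X₀) = -1) :
    2 * {χ : SpecialLinearGroup (Fin 2) F → ℂ | ∃ (θ : Subgroup.zpowers X₀ →* ℂˣ) (α : MulChar F ℂ),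
      θ⁻¹ ≠ θ ∧ Compat h α θ ∧ χ = PI X₀ α θ}.ncard + 1 ≤ Fintype.card F := by
  classical
  obtain ⟨al, hal⟩ := exists_al h hodd
  have hfin : Finite (Subgroup.zpowers X₀ →* ℂˣ) := finite_hom h.comm'
  have hfinA : Finite {θ : Subgroup.zpowers X₀ →* ℂˣ // θ⁻¹ ≠ θ} := Subtype.finite
  let f : {θ : Subgroup.zpowers X₀ →* ℂˣ // θ⁻¹ ≠ θ} → (SpecialLinearGroup (Fin 2) F → ℂ) :=
    fun θ => PI X₀ (al θ.1) θ.1
  let σ : {θ : Subgroup.zpowers X₀ →* ℂˣ // θ⁻¹ ≠ θ} → {θ : Subgroup.zpowers X₀ →* ℂˣ // θ⁻¹ ≠ θ} :=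
    fun θ => ⟨θ.1⁻¹, by rw [b3_inv_inv]; exact θ.2.symm⟩
  have hσ : ∀ a, σ a ≠ a := by
    intro a e
    exact a.2 (congrArg Subtype.val e)
  have hf : ∀ a, f (σ a) = f a := by
    intro a
    exact b3_PI_eq hodd h (hal a.1) (hal (σ a).1) a.2 (σ a).2 (Or.inr (b3_inv_inv a.1))
  have hhalf := half f σ hσ hf
  have hsub : {χ : SpecialLinearGroup (Fin 2) F → ℂ | ∃ (θ : Subgroup.zpowers X₀ →* ℂˣ)
      (α : MulChar F ℂ), θ⁻¹ ≠ θ ∧ Compat h α θ ∧ χ = PI X₀ α θ} ⊆ Set.range f := by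
    rintro χ ⟨θ, α, hθ, hc, rfl⟩
    exact ⟨⟨θ, hθ⟩, b3_PI_eq hodd h hc (hal θ) hθ hθ (Or.inl rfl)⟩
  have hle := Set.ncard_le_ncard hsub (Set.finite_range f)
  have hcard := card_theta hodd h hθ₀
  omega

end sl2

end Cfsg.Agent.Lib.Helper89.MCK
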