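import Cfsg.Agent.Lib.Helper89.MCK.Defs
import Cfsg.Agent.Lib.Helper46.SL2CharMaster

set_option autoImplicit false
set_option linter.unusedSectionVars false
set_option linter.unusedVariables false

namespace Cfsg.Agent.Lib.Helper89.MCK

open Matrix Cfsg Cfsg.Agent.Lib.Helper46 Cfsg.Agent.Lib.Helper19
open scoped ComplexConjugate

/-- a set in which any three elements have a repetition has at most two elements -/
theorem b4_ncard_le_two {α : Type*} (T : Set α)
    (h : ∀ a ∈ T, ∀ b ∈ T, ∀ c ∈ T, a ≠ b → a ≠ c → b ≠ c → False) : T.ncard ≤ 2 := by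
  by_cases hfin : T.Finite
  · by_contra hlt
    have hlt' : 2 < T.ncard := by omega
    obtain ⟨a, b, c, ha, hb, hc, hab, hac, hbc⟩ := (Set.two_lt_ncard_iff hfin).mp hlt'
    exact h a ha b hb c hc hab hac hbc
  · rw [Set.Infinite.ncard hfin]
    omega

section sl2

variable {F : Type*} [Field F] [Fintype F] [DecidableEq F]
variable {X₀ : SpecialLinearGroup (Fin 2) F}

theorem b4_inner (h : NS X₀) {χ : SpecialLinearGroup (Fin 2) F → ℂ}
    (hχ : IsIrrCharacter (SpecialLinearGroup (Fin 2) F) χ)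
    (V : Vals h χ (fun a => alpha0 F a) (fun _ => 0)) :
    classInner χ (RS (alpha0 F)) = 1 := by
  classical
  have hcf : IsClassFunction (SpecialLinearGroup (Fin 2) F) χ :=
    Helper20.isClassFunction_of_isCharacter (Helper20.isCharacter_of_isIrrCharacter hχ)
  rw [inner_RS χ hcf]
  have e : ∀ a : Fˣ, ∑ x : F, χ (Helper44.triSL a x) * conj (alpha0 F a) = (Fintype.card F : ℂ) := by
    intro a
    rw [← Finset.sum_mul, V.split a, mul_assoc, mul_comm (alpha0 F (a : F)), mulChar_conj_mul]
    simp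
  simp only [e]
  rw [Finset.sum_const, Finset.card_univ, Fintype.card_units, nsmul_eq_mul, card_cast_sub_one,
    mul_comm ((Fintype.card F : ℂ) - 1)]
  exact inv_mul_cancel₀ card_mul_ne_zero

/-- B4 -/
theorem bound_half_plus (hodd : Fintype.card F % 2 = 1) (h : NS X₀) :
    {χ : SpecialLinearGroup (Fin 2) F → ℂ | IsIrrCharacter (SpecialLinearGroup (Fin 2) F) χ ∧
      Vals h χ (fun a => alpha0 F a) (fun _ => 0)}.ncard ≤ 2 := by
  classical
  apply b4_ncard_le_two
  rintro a ⟨ha, Va⟩ b ⟨hb, Vb⟩ c ⟨hc, Vc⟩ hab hac hbc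
  have hn : classInner (RS (alpha0 F)) (RS (alpha0 F)) = 2 := by
    rw [inner_RS_RS, if_pos rfl, if_pos alpha0_inv]
    norm_num
  have h0 := inner_eq_zero_of_norm_two (Helper32.genChar_of_char (RS_isCharacter (alpha0 F))) hn ha hb hc
    hab (by rw [b4_inner h ha Va]; exact one_ne_zero) (by rw [b4_inner h hb Vb]; exact one_ne_zero)
    (fun e => hac e.symm) (fun e => hbc e.symm)
  rw [b4_inner h hc Vc] at h0
  exact one_ne_zero h0

end sl2

end Cfsg.Agent.Lib.Helper89.MCK
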