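import Cfsg.Agent.Lib.Helper89.MCK.Defs
import Cfsg.Agent.Lib.Helper89.MCK.B4
import Cfsg.Agent.Lib.Helper46.SL2CharMaster

set_option autoImplicit false
set_option linter.unusedSectionVars false
set_option linter.unusedVariables false

namespace Cfsg.Agent.Lib.Helper89.MCK

open Matrix Cfsg Cfsg.Agent.Lib.Helper46 Cfsg.Agent.Lib.Helper19
open scoped ComplexConjugate

section sl2

variable {F : Type*} [Field F] [Fintype F] [DecidableEq F]
variable {X₀ : SpecialLinearGroup (Fin 2) F}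

theorem b5_mul_conj (θ : Subgroup.zpowers X₀ →* ℂˣ) (t : Subgroup.zpowers X₀) :
    ((θ t : ℂˣ) : ℂ) * conj ((θ t : ℂˣ) : ℂ) = 1 := by
  have := finite_SL2 (F := F)
  rw [hom_conj', ← Units.val_mul, mul_inv_cancel, Units.val_one]

theorem b5_inner (hodd : Fintype.card F % 2 = 1) (h : NS X₀)
    {θ₀ : Subgroup.zpowers X₀ →* ℂˣ} {α : MulChar F ℂ} (hc : Compat h α θ₀)
    {χ : SpecialLinearGroup (Fin 2) F → ℂ}
    (hχ : IsIrrCharacter (SpecialLinearGroup (Fin 2) F) χ)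
    (V : Vals h χ (fun _ => 0) (fun t => ((θ₀ t : ℂˣ) : ℂ))) :
    classInner χ (PI X₀ α θ₀) = 1 := by
  classical
  have h2 := two_ne_zero_of_odd (F := F) hodd
  have := finite_SL2 (F := F)
  have : Fintype (Subgroup.zpowers X₀) := Fintype.ofFinite _
  have hcf : IsClassFunction (SpecialLinearGroup (Fin 2) F) χ :=
    Helper20.isClassFunction_of_isCharacter (Helper20.isCharacter_of_isIrrCharacter hχ)
  have hq := Helper44.card_F_ne_zero (F := F)
  have hq2 := Helper44.card_F_sub_one_ne_zero (F := F)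
  have hq1 := card_add_one_ne_zero (F := F)
  rw [inner_PI h h2 χ hcf]
  have hd := V.deg
  have hdz := V.degz
  simp only [mul_zero, zero_add, map_one, Units.val_one, mul_one] at hd hdz
  have hP1 : PP χ 1 = (Fintype.card F : ℂ) * χ 1 := by
    rw [PP, V.split 1, triSL_one_zero]; ring
  have hP2 : PP χ (-1) = (Fintype.card F : ℂ) * χ negOne := by
    rw [PP, V.split (-1), triSL_negOne_zero]; ring
  have hcz : α (-1) = ((θ₀ (zz h) : ℂˣ) : ℂ) := hc
  have e1 : ∀ t : Subgroup.zpowers X₀, χ t * conj ((θ₀ t : ℂˣ) : ℂ) =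
      (if (t : SpecialLinearGroup (Fin 2) F) ∈ Subgroup.center (SpecialLinearGroup (Fin 2) F)
        then (χ t + ((θ₀ t : ℂˣ) : ℂ)) * conj ((θ₀ t : ℂˣ) : ℂ) else 0) - 1 := by
    intro t
    split_ifs with ht
    · rw [add_mul, b5_mul_conj]; ring
    · rw [V.nonsplit t ht, neg_mul, b5_mul_conj]; ring
  simp only [e1]
  rw [Finset.sum_sub_distrib, sum_torus_central h h2]
  have hz : ((θ₀ (zz h) : ℂˣ) : ℂ) * conj ((θ₀ (zz h) : ℂˣ) : ℂ) = 1 := b5_mul_conj θ₀ (zz h)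
  have hcardT : (∑ _t : Subgroup.zpowers X₀, (1 : ℂ)) = (Fintype.card F : ℂ) + 1 := by
    rw [Finset.sum_const, Finset.card_univ, ← Nat.card_eq_fintype_card, h.hcard]
    simp
  rw [hcardT, hP1, hP2, hcz]
  change _ - _ * ((χ 1 + ((θ₀ 1 : ℂˣ) : ℂ)) * conj ((θ₀ 1 : ℂˣ) : ℂ)
    + (χ negOne + ((θ₀ (zz h) : ℂˣ) : ℂ)) * conj ((θ₀ (zz h) : ℂˣ) : ℂ) - _) = 1
  simp only [map_one, Units.val_one, mul_one]
  set u := ((θ₀ (zz h) : ℂˣ) : ℂ) with hu
  set q := (Fintype.card F : ℂ) with hqdef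
  have hx1 : χ 1 = (q - 1) / 2 := by linear_combination hd / 2
  have hx2 : χ negOne = (q - 1) * u / 2 := by linear_combination hdz / 2
  rw [hx1, hx2]
  have hA : (q * (q - 1))⁻¹ * (q * ((q - 1) / 2) + conj u * (q * ((q - 1) * u / 2))) = 1 := by
    have : q * ((q - 1) / 2) + conj u * (q * ((q - 1) * u / 2)) = (q * (q - 1)) * ((1 + u * conj u) / 2) := by
      ring
    rw [this, hz, ← mul_assoc, inv_mul_cancel₀ (mul_ne_zero hq hq2)]
    norm_num
  have hB : ((q - 1) / 2 + 1 + ((q - 1) * u / 2 + u) * conj u - (q + 1)) = 0 := by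
    have : ((q - 1) / 2 + 1 + ((q - 1) * u / 2 + u) * conj u - (q + 1))
        = ((q - 1) / 2 + 1) * (1 + u * conj u) - (q + 1) := by ring
    rw [this, hz]; ring
  rw [hA, hB]
  ring

/-- B5 -/
theorem bound_half_minus (hodd : Fintype.card F % 2 = 1) (h : NS X₀)
    {θ₀ : Subgroup.zpowers X₀ →* ℂˣ} (hθ₀ : θ₀ (gen X₀) = -1) :
    {χ : SpecialLinearGroup (Fin 2) F → ℂ | IsIrrCharacter (SpecialLinearGroup (Fin 2) F) χ ∧
      Vals h χ (fun _ => 0) (fun t => ((θ₀ t : ℂˣ) : ℂ))}.ncard ≤ 2 := by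
  classical
  obtain ⟨α, hc⟩ := exists_compat h hodd θ₀
  apply b4_ncard_le_two
  rintro a ⟨ha, Va⟩ b ⟨hb, Vb⟩ c ⟨hc', Vc⟩ hab hac hbc
  have hn : classInner (PI X₀ α θ₀) (PI X₀ α θ₀) = 2 := by
    rw [inner_PI_PI h hodd hc hc, if_pos rfl, if_pos (theta0_inv hθ₀)]
    norm_num
  have h0 := inner_eq_zero_of_norm_two (PI_genChar α θ₀) hn ha hb hc'
    hab (by rw [b5_inner hodd h hc ha Va]; exact one_ne_zero)
    (by rw [b5_inner hodd h hc hb Vb]; exact one_ne_zero)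
    (fun e => hac e.symm) (fun e => hbc e.symm)
  rw [b5_inner hodd h hc hc' Vc] at h0
  exact one_ne_zero h0

end sl2

end Cfsg.Agent.Lib.Helper89.MCK
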