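import Cfsg.Agent.Lib.Helper89.MCK.Defs
import Cfsg.Agent.Lib.Helper82.Basic

set_option autoImplicit false
set_option linter.unusedSectionVars false
set_option linter.unusedVariables false

namespace Cfsg.Agent.Lib.Helper89.MCK

open Cfsg

/-- transport of irreducible characters along an isomorphism. -/
noncomputable def eqvIrr {X Y : Type*} [Group X] [Group Y] (e : X ≃* Y) : IrrCharacter X ≃ IrrCharacter Y where
  toFun χ := ⟨fun y => (χ : X → ℂ) (e.symm y),
    Cfsg.Agent.Lib.Helper82.isIrr_comp_surj χ.2 e.symm.toMonoidHom e.symm.surjective⟩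
  invFun ψ := ⟨fun x => (ψ : Y → ℂ) (e x),
    Cfsg.Agent.Lib.Helper82.isIrr_comp_surj ψ.2 e.toMonoidHom e.surjective⟩
  left_inv χ := by
    apply Subtype.ext
    funext x
    simp
  right_inv ψ := by
    apply Subtype.ext
    funext y
    simp

/-- EQV. -/
theorem mk_congr {X Y : Type*} [Group X] [Group Y] (e : X ≃* Y) (ℓ : ℕ) : mk ℓ X = mk ℓ Y := by
  unfold mk
  apply Nat.card_congr
  refine (eqvIrr e).subtypeEquiv ?_
  intro χ
  have h : charDegree ((eqvIrr e χ : IrrCharacter Y) : Y → ℂ) = charDegree (χ : X → ℂ) := by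
    unfold charDegree
    change ⌊((χ : X → ℂ) (e.symm 1)).re⌋₊ = _
    rw [map_one]
  rw [h]

end Cfsg.Agent.Lib.Helper89.MCK
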