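import Cfsg.Agent.Lib.Helper89.MCK.Defs
import Cfsg.Agent.Lib.Helper89.MCK.EQV
import Cfsg.Agent.Lib.Helper89.MCK.ABN
import Cfsg.Agent.Lib.Helper44.Borel
import Cfsg.Agent.S2437

set_option autoImplicit false
set_option linter.unusedSectionVars false
set_option linter.unusedVariables false

namespace Cfsg.Agent.Lib.Helper89.MCK

open Matrix Cfsg

section loc

variable {F : Type*} [Field F]

/-- the unitriangular hom -/
def borU : Multiplicative F →* SpecialLinearGroup (Fin 2) F where
  toFun x := ⟨!![1, Multiplicative.toAdd x; 0, 1], by simp [Matrix.det_fin_two]⟩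
  map_one' := by
    ext i j; fin_cases i <;> fin_cases j <;> simp
  map_mul' x y := by
    apply Subtype.ext
    change !![1, Multiplicative.toAdd (x * y); 0, 1]
      = !![1, Multiplicative.toAdd x; 0, 1] * !![1, Multiplicative.toAdd y; 0, 1]
    rw [Matrix.mul_fin_two]
    simp [add_comm]

theorem borU_coe (x : Multiplicative F) :
    ((borU x : SpecialLinearGroup (Fin 2) F) : Matrix (Fin 2) (Fin 2) F)
      = !![1, Multiplicative.toAdd x; 0, 1] := rfl

theorem borU_injective : Function.Injective (borU : Multiplicative F →* SpecialLinearGroup (Fin 2) F) := by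
  intro x y h
  have h1 := congrArg (fun g : SpecialLinearGroup (Fin 2) F => (g : Matrix (Fin 2) (Fin 2) F) 0 1) h
  simpa [borU_coe] using h1

theorem bor_conj (n : SpecialLinearGroup (Fin 2) F) (hn : (n : Matrix (Fin 2) (Fin 2) F) 1 0 = 0)
    (u : SpecialLinearGroup (Fin 2) F) (hu : u ∈ (borU : Multiplicative F →* _).range) :
    n * u * n⁻¹ ∈ (borU : Multiplicative F →* SpecialLinearGroup (Fin 2) F).range := by
  obtain ⟨x, rfl⟩ := hu
  have hdet : (n : Matrix (Fin 2) (Fin 2) F) 0 0 * (n : Matrix (Fin 2) (Fin 2) F) 1 1 = 1 := by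
    have := n.2
    rw [Matrix.det_fin_two, hn] at this
    simpa using this
  refine ⟨Multiplicative.ofAdd ((n : Matrix (Fin 2) (Fin 2) F) 0 0 * (n : Matrix (Fin 2) (Fin 2) F) 0 0
    * Multiplicative.toAdd x), ?_⟩
  ext i j
  fin_cases i <;> fin_cases j <;>
    simp [borU_coe, Matrix.mul_apply, Fin.sum_univ_two, Matrix.adjugate_fin_two, hn]
  · linear_combination -hdet
  · ring
  · linear_combination -hdet

theorem bor_normalizer :
    Subgroup.normalizer (((borU : Multiplicative F →* SpecialLinearGroup (Fin 2) F).range :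
      Subgroup (SpecialLinearGroup (Fin 2) F)) : Set (SpecialLinearGroup (Fin 2) F))
      = (Cfsg.upperTriangularGL 2 F).comap Matrix.SpecialLinearGroup.toGL := by
  ext n
  rw [Subgroup.mem_normalizer_iff]
  change _ ↔ n ∈ Cfsg.Agent.Lib.Helper44.borelSL F
  rw [Cfsg.Agent.Lib.Helper44.mem_borelSL]
  constructor
  · intro h
    obtain ⟨y, hy⟩ := (h (borU (Multiplicative.ofAdd 1))).1 ⟨_, rfl⟩
    have h1 := congrArg (fun g : SpecialLinearGroup (Fin 2) F => (g : Matrix (Fin 2) (Fin 2) F) 1 0) hy
    simp [borU_coe, Matrix.mul_apply, Fin.sum_univ_two, Matrix.adjugate_fin_two] at h1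
    have h2 : (n : Matrix (Fin 2) (Fin 2) F) 1 0 * (n : Matrix (Fin 2) (Fin 2) F) 1 0 = 0 := by
      linear_combination h1
    exact mul_self_eq_zero.1 h2
  · intro hn u
    constructor
    · exact bor_conj n hn u
    · intro hu
      have hn' : ((n⁻¹ : SpecialLinearGroup (Fin 2) F) : Matrix (Fin 2) (Fin 2) F) 1 0 = 0 := by
        simp [Matrix.adjugate_fin_two, hn]
      have := bor_conj n⁻¹ hn' _ hu
      simpa [mul_assoc] using this

variable [Fintype F]

theorem mk_borel (hodd : Odd (Fintype.card F)) (p : ℕ) [Fact p.Prime] [CharP F p]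
    (S : Sylow p (SpecialLinearGroup (Fin 2) F)) :
    mk p (Subgroup.normalizer ((S : Subgroup (SpecialLinearGroup (Fin 2) F)) : Set (SpecialLinearGroup (Fin 2) F))) = Fintype.card F + 3 := by
  classical
  have hp : p.Prime := Fact.out
  obtain ⟨k, -, hq⟩ := FiniteField.card F p
  have hpq : p ∣ Fintype.card F := by rw [hq]; exact dvd_pow_self p k.ne_zero
  have hq2 : 2 ≤ Fintype.card F := Fintype.one_lt_card
  have hnd1 : ¬ p ∣ Fintype.card F - 1 := by
    intro h
    have : p ∣ 1 := by
      have h2 := Nat.dvd_sub hpq h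
      have h3 : Fintype.card F - (Fintype.card F - 1) = 1 := by omega
      rwa [h3] at h2
    exact hp.one_lt.ne' (Nat.dvd_one.1 this)
  have hnd2 : ¬ p ∣ Fintype.card F + 1 := by
    intro h
    have : p ∣ 1 := by
      have h2 := Nat.dvd_sub h hpq
      have h3 : Fintype.card F + 1 - Fintype.card F = 1 := by omega
      rwa [h3] at h2
    exact hp.one_lt.ne' (Nat.dvd_one.1 this)
  set U : Subgroup (SpecialLinearGroup (Fin 2) F) := (borU : Multiplicative F →* _).range with hU
  have hcU : Nat.card U = Fintype.card F := by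
    rw [hU, Nat.card_congr (MonoidHom.ofInjective borU_injective).symm.toEquiv,
      Nat.card_eq_fintype_card, Fintype.card_multiplicative]
  have hUp : IsPGroup p U := IsPGroup.of_card (n := k) (by rw [hcU, hq])
  obtain ⟨Q, hUQ⟩ := hUp.exists_le_sylow
  have hQU : U = (Q : Subgroup (SpecialLinearGroup (Fin 2) F)) := by
    apply Subgroup.eq_of_le_of_card_ge hUQ
    obtain ⟨m, hm⟩ := IsPGroup.iff_card.mp Q.2
    have hdvd : p ^ m ∣ (Fintype.card F + 1) * ((Fintype.card F - 1) * Fintype.card F) := by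
      rw [← hm, ← Cfsg.Agent.Lib.Helper44.card_SL2]
      exact Subgroup.card_subgroup_dvd_card _
    have hc1 : Nat.Coprime (p ^ m) (Fintype.card F + 1) :=
      Nat.Coprime.pow_left m ((Nat.Prime.coprime_iff_not_dvd hp).2 hnd2)
    have hc2 : Nat.Coprime (p ^ m) (Fintype.card F - 1) :=
      Nat.Coprime.pow_left m ((Nat.Prime.coprime_iff_not_dvd hp).2 hnd1)
    have h1 := hc2.dvd_of_dvd_mul_left (hc1.dvd_of_dvd_mul_left hdvd)
    rw [hm, hcU]
    exact Nat.le_of_dvd (by omega) h1
  obtain ⟨g, hg⟩ := MulAction.exists_smul_eq (SpecialLinearGroup (Fin 2) F) Q S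
  have hS : (S : Subgroup (SpecialLinearGroup (Fin 2) F)) = U.map (MulAut.conj g).toMonoidHom := by
    rw [← hg, hQU]
    rfl
  have hN : Subgroup.normalizer ((S : Subgroup (SpecialLinearGroup (Fin 2) F)) : Set (SpecialLinearGroup (Fin 2) F))
      = ((Cfsg.upperTriangularGL 2 F).comap Matrix.SpecialLinearGroup.toGL).map
        (MulAut.conj g).toMonoidHom := by
    rw [hS, ← Subgroup.map_equiv_normalizer_eq, hU, bor_normalizer]
  rw [mk_congr (MulEquiv.subgroupCongr hN) p]
  refine (mk_congr ((MulAut.conj g).subgroupMap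
    ((Cfsg.upperTriangularGL 2 F).comap Matrix.SpecialLinearGroup.toGL)) p).symm.trans ?_
  have hUB : U ≤ (Cfsg.upperTriangularGL 2 F).comap Matrix.SpecialLinearGroup.toGL := by
    rw [← bor_normalizer]
    exact Subgroup.le_normalizer
  have : (U.subgroupOf ((Cfsg.upperTriangularGL 2 F).comap Matrix.SpecialLinearGroup.toGL)).Normal := by
    rw [← bor_normalizer]
    exact Subgroup.normal_in_normalizer
  rw [mk_eq_classes p (U.subgroupOf ((Cfsg.upperTriangularGL 2 F).comap Matrix.SpecialLinearGroup.toGL)),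
    Cfsg.Agent.S2437.result hodd]
  · rintro ⟨a, ha⟩ ⟨x, hx⟩ ⟨b, hb⟩ ⟨y, hy⟩
    apply Subtype.ext
    change a * b = b * a
    change borU x = a at hx
    change borU y = b at hy
    rw [← hx, ← hy, ← map_mul, ← map_mul, mul_comm]
  · have h1 := Subgroup.card_mul_index
      (U.subgroupOf ((Cfsg.upperTriangularGL 2 F).comap Matrix.SpecialLinearGroup.toGL))
    rw [Nat.card_congr (Subgroup.subgroupOfEquivOfLe hUB).toEquiv, hcU] at h1
    have h2 : Nat.card ((Cfsg.upperTriangularGL 2 F).comap Matrix.SpecialLinearGroup.toGL :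
        Subgroup (SpecialLinearGroup (Fin 2) F)) = (Fintype.card F - 1) * Fintype.card F :=
      Cfsg.Agent.Lib.Helper44.card_borelSL
    rw [h2, mul_comm] at h1
    have h3 := Nat.eq_of_mul_eq_mul_right (by omega) h1
    rw [h3]
    exact hnd1

end loc

end Cfsg.Agent.Lib.Helper89.MCK
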