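import Cfsg.Agent.Lib.Helper46.SL2Torus
import Cfsg.Agent.Lib.Helper46.SL2Conj
import Cfsg.Agent.Lib.Helper46.SL2Order

/-! Ladder MCK, auxiliary piece for rung TOR: the inversion, uniformly (also for `ℓ = p`). -/

set_option autoImplicit false

namespace Cfsg.Agent.Lib.Helper89.MCK

open Matrix Cfsg.Agent.Lib.Helper46

variable {F : Type*} [Field F]

/-- `g` normalises the abelian group `C ∋ x₀`, `g * g` commutes with `x₀`, the elements of `C` commuting
with `g` are central, `x₀ * x₀ ≠ -1`: then `g` inverts `x₀`. -/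
theorem tori_inv (h2 : (2 : F) ≠ 0) (C : Subgroup (SpecialLinearGroup (Fin 2) F))
    (hC : ∀ a ∈ C, ∀ b ∈ C, a * b = b * a) (x₀ g : SpecialLinearGroup (Fin 2) F) (hx : x₀ ∈ C)
    (hy : g * x₀ * g⁻¹ ∈ C) (hg2 : (g * g) * x₀ = x₀ * (g * g))
    (hfix : ∀ t ∈ C, g * t = t * g → t ∈ Subgroup.center (SpecialLinearGroup (Fin 2) F))
    (h4 : x₀ * x₀ ≠ negOne) : g * x₀ * g⁻¹ = x₀⁻¹ := by
  obtain ⟨y, hydef⟩ : ∃ y, y = g * x₀ * g⁻¹ := ⟨_, rfl⟩
  rw [← hydef] at hy ⊢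
  have hgy : g * y * g⁻¹ = x₀ := by
    rw [hydef]
    calc g * (g * x₀ * g⁻¹) * g⁻¹ = ((g * g) * x₀) * (g⁻¹ * g⁻¹) := by group
      _ = (x₀ * (g * g)) * (g⁻¹ * g⁻¹) := by rw [hg2]
      _ = x₀ := by group
  have hu : g * (x₀ * y) = (x₀ * y) * g := by
    calc g * (x₀ * y) = (g * x₀ * g⁻¹) * (g * y * g⁻¹) * g := by group
      _ = y * x₀ * g := by rw [← hydef, hgy]
      _ = (x₀ * y) * g := by rw [hC y hy x₀ hx]
  have hcen := hfix (x₀ * y) (C.mul_mem hx hy) hu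
  rcases eq_one_or_negOne_of_mem_center _ hcen with h | h
  · exact eq_inv_of_mul_eq_one_right h
  · exfalso
    have hy2 : y = negOne * x₀⁻¹ := by
      have hnc : negOne * x₀⁻¹ = x₀⁻¹ * (negOne : SpecialLinearGroup (Fin 2) F) := by
        rw [← h]
        have := hC x₀ hx y hy
        calc x₀ * y * x₀⁻¹ = y * x₀ * x₀⁻¹ := by rw [this]
          _ = x₀⁻¹ * (x₀ * y) := by group
      rw [hnc, ← h]
      group
    have ht : tr y = tr x₀ := by rw [hydef, tr_conj]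
    rw [hy2, tr_negOne_mul, tr_inv] at ht
    have ht0 : tr x₀ = 0 := by
      have h3 : (2 : F) * tr x₀ = 0 := by linear_combination -ht
      exact (mul_eq_zero.mp h3).resolve_left h2
    exact h4 (sq_of_tr_zero x₀ ht0)

end Cfsg.Agent.Lib.Helper89.MCK
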