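import Cfsg.Agent.Lib.Helper89.MCK.Defs
import Cfsg.Agent.Lib.Helper89.MCK.ABN
import Cfsg.Agent.Lib.Helper89.MCK.TORI
import Cfsg.Agent.Lib.Helper46.ClassCount
import Cfsg.Agent.Lib.Helper46.SL2Q8

set_option autoImplicit false
set_option linter.unusedSectionVars false
set_option linter.unusedVariables false

namespace Cfsg.Agent.Lib.Helper89.MCK

open Matrix Cfsg Cfsg.Agent.Lib.Helper46

variable {F : Type*} [Field F] [Fintype F]

/-- TOR -/
theorem mk_torus (hodd : Odd (Fintype.card F)) (ℓ : ℕ) [Fact ℓ.Prime] (hℓ : ℓ ≠ 2)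
    (P : Sylow ℓ (SpecialLinearGroup (Fin 2) F)) (m : ℕ) (hℓm : ℓ ∣ m)
    (hC : Nat.card (Subgroup.centralizer ((P : Subgroup (SpecialLinearGroup (Fin 2) F)) : Set (SpecialLinearGroup (Fin 2) F))) = m)
    (hcyc : IsCyclic (Subgroup.centralizer ((P : Subgroup (SpecialLinearGroup (Fin 2) F)) : Set (SpecialLinearGroup (Fin 2) F))))
    (hN : Nat.card (Subgroup.normalizer ((P : Subgroup (SpecialLinearGroup (Fin 2) F)) : Set (SpecialLinearGroup (Fin 2) F))) = 2 * m) :
    2 * mk ℓ (Subgroup.normalizer ((P : Subgroup (SpecialLinearGroup (Fin 2) F)) : Set (SpecialLinearGroup (Fin 2) F))) = m + 6 := by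
  classical
  have hℓp : ℓ.Prime := Fact.out
  have : Finite (SpecialLinearGroup (Fin 2) F) := finite_SL2
  have h2 : (2 : F) ≠ 0 := by
    intro h
    have hch : CharP F 2 := by
      have : ringChar F ∣ 2 := (ringChar.spec F 2).mp (by exact_mod_cast h)
      rcases (Nat.dvd_prime Nat.prime_two).mp this with h1 | h1
      · exact absurd h1 (CharP.ringChar_ne_one)
      · exact h1 ▸ ringChar.charP F
    have : 2 ∣ Fintype.card F := by
      obtain ⟨n, hp, hn⟩ := FiniteField.card F 2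
      rw [hn]
      exact dvd_pow_self 2 n.ne_zero
    exact (Nat.not_even_iff_odd.mpr hodd) (even_iff_two_dvd.mpr this)
  obtain ⟨C, hCdef⟩ : ∃ C : Subgroup (SpecialLinearGroup (Fin 2) F), C = Subgroup.centralizer
    ((P : Subgroup (SpecialLinearGroup (Fin 2) F)) : Set (SpecialLinearGroup (Fin 2) F)) := ⟨_, rfl⟩
  obtain ⟨N, hNdef⟩ : ∃ N : Subgroup (SpecialLinearGroup (Fin 2) F), N = Subgroup.normalizer
    ((P : Subgroup (SpecialLinearGroup (Fin 2) F)) : Set (SpecialLinearGroup (Fin 2) F)) := ⟨_, rfl⟩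
  have hCN : C ≤ N := by rw [hCdef, hNdef]; exact Subgroup.centralizer_le_normalizer _
  rw [← hCdef] at hC hcyc
  rw [← hNdef] at hN ⊢
  have hm0 : 0 < m := by rw [← hC]; exact Nat.card_pos
  obtain ⟨⟨x₀, hx₀⟩, hgen⟩ := hcyc.exists_generator
  have hgen' : ∀ t ∈ C, ∃ k : ℤ, x₀ ^ k = t := by
    intro t ht
    obtain ⟨k, hk⟩ := Subgroup.mem_zpowers_iff.mp (hgen ⟨t, ht⟩)
    exact ⟨k, by simpa using congrArg Subtype.val hk⟩
  have hCc : ∀ a ∈ C, ∀ b ∈ C, a * b = b * a := by
    intro a ha b hb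
    obtain ⟨k, rfl⟩ := hgen' a ha
    obtain ⟨l, rfl⟩ := hgen' b hb
    rw [← _root_.zpow_add, ← _root_.zpow_add, add_comm]
  have hord : orderOf x₀ = m := by
    have h1 : orderOf (⟨x₀, hx₀⟩ : C) = Nat.card C := orderOf_eq_card_of_forall_mem_zpowers hgen
    rw [← hC, ← h1, ← Subgroup.orderOf_coe]
  let T : Subgroup N := C.subgroupOf N
  have hTcard : Nat.card T = m := by
    rw [← hC]
    exact Nat.card_congr (Subgroup.subgroupOfEquivOfLe hCN).toEquiv
  have hidx : T.index = 2 := by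
    have h1 := T.index_mul_card
    rw [hTcard, hN] at h1
    exact Nat.eq_of_mul_eq_mul_right hm0 h1
  have hTn : T.Normal := Subgroup.normal_of_index_eq_two hidx
  have hmemT : ∀ t : N, t ∈ T ↔ (t : SpecialLinearGroup (Fin 2) F) ∈ C := fun t => Subgroup.mem_subgroupOf
  have hTc : ∀ a ∈ T, ∀ b ∈ T, a * b = b * a := by
    intro a ha b hb
    apply Subtype.ext
    exact hCc _ ((hmemT a).mp ha) _ ((hmemT b).mp hb)
  have hnd : ¬ ℓ ∣ T.index := by
    rw [hidx]
    intro h
    exact hℓ ((Nat.prime_dvd_prime_iff_eq hℓp Nat.prime_two).mp h)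
  have h4 : x₀ * x₀ ≠ negOne := by
    intro h
    have h5 : x₀ ^ 4 = 1 := by
      calc x₀ ^ 4 = (x₀ * x₀) * (x₀ * x₀) := by simp only [pow_succ, pow_zero, one_mul, mul_assoc]
        _ = 1 := by rw [h, negOne_mul_self]
    have h6 : m ∣ 4 := hord ▸ orderOf_dvd_of_pow_eq_one h5
    have h7 : ℓ ∣ 2 ^ 2 := by
      have := hℓm.trans h6
      simpa using this
    exact hℓ ((Nat.prime_dvd_prime_iff_eq hℓp Nat.prime_two).mp (hℓp.dvd_of_dvd_pow h7))
  have hinv : ∀ g : N, g ∉ T → ∀ t ∈ T, g * t * g⁻¹ = t⁻¹ := by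
    intro g hg t ht
    have hgC : (g : SpecialLinearGroup (Fin 2) F) ∉ C := fun h => hg ((hmemT g).mpr h)
    have hy : (g : SpecialLinearGroup (Fin 2) F) * x₀ * (g : SpecialLinearGroup (Fin 2) F)⁻¹ ∈ C := by
      have h1 := hTn.conj_mem ⟨x₀, hCN hx₀⟩ ((hmemT _).mpr hx₀) g
      exact (hmemT _).mp h1
    have hgg : (g : SpecialLinearGroup (Fin 2) F) * g ∈ C := by
      have h1 := Subgroup.mul_self_mem_of_index_two hidx g
      exact (hmemT _).mp h1
    have hfix : ∀ s ∈ C, (g : SpecialLinearGroup (Fin 2) F) * s = s * g →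
        s ∈ Subgroup.center (SpecialLinearGroup (Fin 2) F) := by
      intro s hs hgs
      by_contra hsc
      apply hgC
      rw [hCdef, Subgroup.mem_centralizer_iff]
      intro x hx
      have hsx : x * s = s * x := by
        rw [hCdef, Subgroup.mem_centralizer_iff] at hs
        exact hs x hx
      exact (commute_trans s x g hsc hsx hgs).symm
    have hx := tori_inv h2 C hCc x₀ g hx₀ hy (hCc _ hgg _ hx₀) hfix h4
    obtain ⟨k, hk⟩ := hgen' t ((hmemT t).mp ht)
    apply Subtype.ext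
    change (g : SpecialLinearGroup (Fin 2) F) * t * (g : SpecialLinearGroup (Fin 2) F)⁻¹
      = (t : SpecialLinearGroup (Fin 2) F)⁻¹
    rw [← hk, ← conj_zpow, hx, _root_.inv_zpow]
  have hnegC : (negOne : SpecialLinearGroup (Fin 2) F) ∈ C := by
    rw [hCdef]
    exact Subgroup.center_le_centralizer _ negOne_mem_center
  have h2' : Nat.card {t : N // t ∈ T ∧ t * t = 1} = 2 := by
    rw [Nat.card_eq_two_iff]
    refine ⟨⟨1, T.one_mem, by simp⟩, ⟨⟨negOne, hCN hnegC⟩, (hmemT _).mpr hnegC,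
      Subtype.ext negOne_mul_self⟩, ?_, ?_⟩
    · intro h
      have h1 := congrArg (fun z => ((z.1 : N) : SpecialLinearGroup (Fin 2) F)) h
      exact one_ne_negOne h2 h1
    · ext ⟨t, ht, htt⟩
      simp only [Set.mem_insert_iff, Set.mem_singleton_iff, Set.mem_univ, iff_true]
      have h1 : (t : SpecialLinearGroup (Fin 2) F) * t = 1 := congrArg Subtype.val htt
      rcases eq_one_or_negOne_of_mem_center _ (mem_center_of_sq_eq_one h2 _ h1) with h3 | h3
      · left
        apply Subtype.ext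
        apply Subtype.ext
        exact h3
      · right
        apply Subtype.ext
        apply Subtype.ext
        exact h3
  rw [mk_eq_classes ℓ T hTc hnd, card_conjClasses_of_inverting T hidx hTc hinv h2', hTcard]

end Cfsg.Agent.Lib.Helper89.MCK
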