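import Cfsg.Agent.Lib.Helper89.MCK.Defs
import Cfsg.Agent.Lib.Helper89.MCK.EQV

set_option autoImplicit false
set_option linter.unusedSectionVars false
set_option linter.unusedVariables false

namespace Cfsg.Agent.Lib.Helper89.MCK

open Matrix Cfsg

variable {F : Type*} [Field F] [Fintype F]

/-- TRIV (helper73).  `S = ⊥`, `normalizer = ⊤ ≃* G`: `mk_congr`. -/
theorem mk_triv (ℓ : ℕ) [Fact ℓ.Prime] (hℓ : ¬ ℓ ∣ Nat.card (SpecialLinearGroup (Fin 2) F))
    (S : Sylow ℓ (SpecialLinearGroup (Fin 2) F)) :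
    mk ℓ (Subgroup.normalizer ((S : Subgroup (SpecialLinearGroup (Fin 2) F)) : Set (SpecialLinearGroup (Fin 2) F))) =
      mk ℓ (SpecialLinearGroup (Fin 2) F) := by
  have hS : (S : Subgroup (SpecialLinearGroup (Fin 2) F)) = ⊥ := by
    obtain ⟨n, hn⟩ := S.2.exists_card_eq
    have hdvd := Subgroup.card_subgroup_dvd_card (S : Subgroup (SpecialLinearGroup (Fin 2) F))
    rcases Nat.eq_zero_or_pos n with h0 | h0
    · subst h0
      rw [pow_zero] at hn
      exact Subgroup.eq_bot_of_card_eq _ hn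
    · exfalso
      apply hℓ
      refine dvd_trans ?_ hdvd
      have h1 : Nat.card ↥(S : Subgroup (SpecialLinearGroup (Fin 2) F)) = ℓ ^ n := hn
      rw [h1]
      exact dvd_pow_self ℓ h0.ne'
  have hN : Subgroup.normalizer ((S : Subgroup (SpecialLinearGroup (Fin 2) F)) : Set (SpecialLinearGroup (Fin 2) F)) = ⊤ := by
    rw [hS]
    exact Subgroup.normalizer_eq_top (H := (⊥ : Subgroup (SpecialLinearGroup (Fin 2) F)))
  rw [hN]
  exact mk_congr Subgroup.topEquiv ℓ

end Cfsg.Agent.Lib.Helper89.MCK
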