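import Cfsg.Agent.Lib.Helper89.MCK.Defs
import Cfsg.Agent.Lib.Helper46.ClassCount
import Cfsg.Agent.Lib.Helper60.CdTwo
import Cfsg.Agent.Lib.Helper82.Codegree
import Cfsg.Agent.S0133

/-! Ladder MCK, rung DIC2 (helper6). -/

set_option autoImplicit false
set_option linter.unusedSectionVars false
set_option linter.unusedVariables false

namespace Cfsg.Agent.Lib.Helper89.MCK

open Matrix Cfsg Cfsg.Agent.Lib.Helper46

theorem mk_two_of_inverting {X : Type*} [Group X] [Finite X] (T : Subgroup X) (hidx : T.index = 2)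
    (hcomm : ∀ a ∈ T, ∀ b ∈ T, a * b = b * a) (hinv : ∀ g, g ∉ T → ∀ t ∈ T, g * t * g⁻¹ = t⁻¹)
    (h2 : Nat.card {t : X // t ∈ T ∧ t * t = 1} = 2) : mk 2 X = 4 := by
  classical
  haveI : T.Normal := Subgroup.normal_of_index_eq_two hidx
  have hk := Cfsg.Agent.S0133.result (G := X)
  haveI : Finite (IrrCharacter X) := by
    apply Nat.finite_of_card_ne_zero
    rw [hk]
    exact Nat.card_pos.ne'
  have := Fintype.ofFinite (IrrCharacter X)
  have hdeg : ∀ χ : IrrCharacter X, charDegree (χ : X → ℂ) = 1 ∨ charDegree (χ : X → ℂ) = 2 := by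
    intro χ
    have h := Cfsg.Agent.Lib.Helper60.Cd.ito T hcomm χ
    rw [hidx] at h
    exact (Nat.dvd_prime Nat.prime_two).1 h
  have hc := card_conjClasses_of_inverting T hidx hcomm hinv h2
  have hs := Cfsg.Agent.Lib.Helper82.sum_sq_charDegree (G := X)
  have hX : Nat.card X = 2 * Nat.card T := by rw [← T.index_mul_card, hidx]
  obtain ⟨a, ha⟩ : ∃ a, a = (Finset.univ.filter (fun χ : IrrCharacter X => charDegree (χ : X → ℂ) = 1)).card :=
    ⟨_, rfl⟩
  obtain ⟨b, hb⟩ : ∃ b, b = (Finset.univ.filter (fun χ : IrrCharacter X => ¬ charDegree (χ : X → ℂ) = 1)).card :=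
    ⟨_, rfl⟩
  have hab : a + b = Fintype.card (IrrCharacter X) := by
    rw [ha, hb]
    exact Finset.card_filter_add_card_filter_not _
  have hsum : ∑ χ : IrrCharacter X, charDegree (χ : X → ℂ) ^ 2 = a + 4 * b := by
    rw [← Finset.sum_filter_add_sum_filter_not Finset.univ (fun χ : IrrCharacter X => charDegree (χ : X → ℂ) = 1)]
    congr 1
    · rw [Finset.sum_congr rfl (g := fun _ => 1) (fun χ hχ => by rw [(Finset.mem_filter.1 hχ).2]; norm_num)]
      rw [Finset.sum_const, smul_eq_mul, mul_one, ha]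
    · rw [Finset.sum_congr rfl (g := fun _ => 4) (fun χ hχ => by
        rw [(hdeg χ).resolve_left (Finset.mem_filter.1 hχ).2]; norm_num)]
      rw [Finset.sum_const, smul_eq_mul, mul_comm, hb]
  have hmk : mk 2 X = a := by
    unfold mk
    rw [Nat.card_eq_fintype_card, Fintype.card_subtype, ha]
    congr 1
    ext χ
    simp only [Finset.mem_filter, Finset.mem_univ, true_and]
    rcases hdeg χ with h | h <;> simp [h]
  rw [Nat.card_eq_fintype_card] at hk
  omega

end Cfsg.Agent.Lib.Helper89.MCK
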