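import Cfsg.Agent.Lib.Helper89.MCK.Defs
import Cfsg.Agent.Lib.Helper82.Codegree
import Cfsg.Agent.Lib.Helper82.LinCount

/-! Ladder MCK, rung Q24. -/

set_option autoImplicit false
set_option linter.unusedSectionVars false
set_option linter.unusedVariables false

namespace Cfsg.Agent.Lib.Helper89.MCK

open Cfsg Cfsg.Agent.Lib.Helper82
open scoped commutatorElement

theorem mk_two_of_card24 {X : Type*} [Group X] [Finite X] (hcard : Nat.card X = 24) (S : Subgroup X) [S.Normal]
    (hS : Nat.card S = 8) (hSc : S ≤ commutator X) : mk 2 X = 4 := by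
  classical
  have := Fintype.ofFinite (IrrCharacter X)
  have hidx : S.index = 3 := by
    have := S.card_mul_index
    rw [hS, hcard] at this
    omega
  have hle : commutator X ≤ S := by
    have h3 : Nat.card (X ⧸ S) = 3 := by rw [← Subgroup.index_eq_card]; exact hidx
    have : Fact (Nat.Prime 3) := ⟨by norm_num⟩
    have hc : IsCyclic (X ⧸ S) := isCyclic_of_prime_card h3
    rw [commutator_def, Subgroup.commutator_le]
    intro a _ b _
    rw [← QuotientGroup.eq_one_iff]
    have : ((⁅a, b⁆ : X) : X ⧸ S) = ⁅(a : X ⧸ S), (b : X ⧸ S)⁆ := by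
      simp [commutatorElement_def]
    rw [this, commutatorElement_eq_one_iff_mul_comm]
    exact (IsCyclic.commGroup (α := X ⧸ S)).mul_comm _ _
  have heq : commutator X = S := le_antisymm hle hSc
  obtain ⟨d, hd⟩ : ∃ d : IrrCharacter X → ℕ, d = fun χ : IrrCharacter X => charDegree (χ : X → ℂ) := ⟨_, rfl⟩
  have hdpos : ∀ χ, 0 < d χ := by
    intro χ; rw [hd]; exact isIrr_charDegree_pos χ.2
  have hsum : ∑ χ : IrrCharacter X, d χ ^ 2 = 24 := by
    rw [hd, ← hcard]; exact sum_sq_charDegree
  have hdle : ∀ χ, d χ ≤ 4 := by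
    intro χ
    have h1 : d χ ^ 2 ≤ ∑ χ : IrrCharacter X, d χ ^ 2 :=
      Finset.single_le_sum (f := fun χ => d χ ^ 2) (fun _ _ => Nat.zero_le _) (Finset.mem_univ χ)
    rw [hsum] at h1
    nlinarith
  have hn1 : ∑ χ : IrrCharacter X, (if d χ = 1 then 1 else 0) = 3 := by
    have h := card_linear_eq_index (G := X)
    rw [heq, hidx, Nat.card_eq_fintype_card, Fintype.card_subtype, Finset.card_filter] at h
    rw [← h]
    apply Finset.sum_congr rfl
    intro χ _
    have : ((χ : X → ℂ) 1 = 1) ↔ d χ = 1 := by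
      rw [isChar_one_eq (isIrr_isChar χ.2), hd]
      exact_mod_cast Iff.rfl
    simp only [this]
  have hsplit : ∑ χ : IrrCharacter X, d χ ^ 2 =
      ∑ χ : IrrCharacter X, (if d χ = 1 then 1 else 0) +
      4 * ∑ χ : IrrCharacter X, (if d χ = 2 then 1 else 0) +
      9 * ∑ χ : IrrCharacter X, (if d χ = 3 then 1 else 0) +
      16 * ∑ χ : IrrCharacter X, (if d χ = 4 then 1 else 0) := by
    rw [Finset.mul_sum, Finset.mul_sum, Finset.mul_sum, ← Finset.sum_add_distrib,
      ← Finset.sum_add_distrib, ← Finset.sum_add_distrib]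
    apply Finset.sum_congr rfl
    intro χ _
    have h1 := hdpos χ
    have h2 := hdle χ
    obtain ⟨k, hk⟩ : ∃ k, k = d χ := ⟨_, rfl⟩
    rw [← hk] at h1 h2 ⊢
    interval_cases k <;> simp
  have hmk : mk 2 X = ∑ χ : IrrCharacter X, (if d χ = 1 then 1 else 0) +
      ∑ χ : IrrCharacter X, (if d χ = 3 then 1 else 0) := by
    unfold mk
    rw [Nat.card_eq_fintype_card, Fintype.card_subtype, Finset.card_filter,
      ← Finset.sum_add_distrib]
    apply Finset.sum_congr rfl
    intro χ _
    have h1 := hdpos χ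
    have h2 := hdle χ
    have h3 : charDegree (χ : X → ℂ) = d χ := by rw [hd]
    rw [h3]
    obtain ⟨k, hk⟩ : ∃ k, k = d χ := ⟨_, rfl⟩
    rw [← hk] at h1 h2 ⊢
    interval_cases k <;> simp
  rw [hmk]
  rw [hsplit] at hsum
  omega

end Cfsg.Agent.Lib.Helper89.MCK
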