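import Cfsg.Agent.Lib.Helper89.MCK.EQV
import Cfsg.Agent.Lib.Helper89.MCK.DIC2
import Cfsg.Agent.Lib.Helper89.MCK.Q24
import Cfsg.Agent.Lib.Helper46.QuatPack
import Cfsg.Agent.Lib.Helper46.SL2Q8
import Cfsg.Agent.S0261

set_option autoImplicit false
set_option linter.unusedSectionVars false
set_option linter.unusedVariables false

namespace Cfsg.Agent.Lib.Helper89.MCK

open Cfsg QuaternionGroup

/-- the cyclic subgroup of index two of the generalised quaternion group -/
def twoT (n : ℕ) [NeZero n] : Subgroup (QuaternionGroup n) where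
  carrier := {x | ∃ i, x = a i}
  mul_mem' := by
    rintro _ _ ⟨i, rfl⟩ ⟨j, rfl⟩
    exact ⟨i + j, rfl⟩
  one_mem' := ⟨0, rfl⟩
  inv_mem' := by
    rintro _ ⟨i, rfl⟩
    exact ⟨-i, rfl⟩

theorem two_xa_not_mem (n : ℕ) [NeZero n] (i : ZMod (2 * n)) : xa i ∉ twoT n := by
  rintro ⟨j, hj⟩
  cases hj

theorem two_cast (n : ℕ) : ((n : ZMod (2 * n)) + n) = 0 := by
  have := ZMod.natCast_self (2 * n)
  push_cast at this
  linear_combination this

theorem two_quat (n : ℕ) [NeZero n] : mk 2 (QuaternionGroup n) = 4 := by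
  have hne : NeZero (2 * n) := ⟨by have := NeZero.ne n; omega⟩
  apply mk_two_of_inverting (twoT n)
  · rw [Subgroup.index_eq_two_iff]
    refine ⟨xa 0, ?_⟩
    rintro (i | i)
    · right
      exact ⟨⟨i, rfl⟩, by rw [a_mul_xa]; exact two_xa_not_mem n _⟩
    · left
      exact ⟨by rw [xa_mul_xa]; exact ⟨_, rfl⟩, two_xa_not_mem n _⟩
  · rintro _ ⟨i, rfl⟩ _ ⟨j, rfl⟩
    rw [a_mul_a, a_mul_a, add_comm]
  · rintro (i | i) hg
    · exact absurd ⟨i, rfl⟩ hg
    · rintro _ ⟨j, rfl⟩
      have h1 : (xa i : QuaternionGroup n)⁻¹ = xa ((n : ZMod (2 * n)) + i) := rfl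
      have h2 : (a j : QuaternionGroup n)⁻¹ = a (-j) := rfl
      rw [h1, h2, xa_mul_a, xa_mul_xa]
      congr 1
      linear_combination two_cast n
  · rw [Nat.card_eq_two_iff]
    have hn0 : (n : ZMod (2 * n)) ≠ 0 := by
      intro h
      rw [ZMod.natCast_eq_zero_iff] at h
      have := Nat.le_of_dvd (Nat.pos_of_ne_zero (NeZero.ne n)) h
      have := NeZero.ne n
      omega
    refine ⟨⟨1, (twoT n).one_mem, by simp⟩, ⟨a n, ⟨_, rfl⟩, by rw [a_mul_a, two_cast]; rfl⟩, ?_, ?_⟩
    · intro h
      have h1 : (1 : QuaternionGroup n) = a n := congrArg Subtype.val h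
      rw [one_def] at h1
      injection h1 with h2
      exact hn0 h2.symm
    · apply Set.eq_univ_of_forall
      rintro ⟨_, ⟨i, rfl⟩, hi⟩
      rw [a_mul_a, one_def] at hi
      injection hi with hi
      have hv : i.val < 2 * n := ZMod.val_lt i
      have h3 : ((i.val + i.val : ℕ) : ZMod (2 * n)) = 0 := by
        push_cast
        rw [ZMod.natCast_zmod_val]
        exact hi
      rw [ZMod.natCast_eq_zero_iff] at h3
      obtain ⟨c, hc⟩ := h3
      have hc2 : c = 0 ∨ c = 1 := by
        rcases c with _ | _ | c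
        · left; rfl
        · right; rfl
        · exfalso
          have : 2 * n * (c + 1 + 1) ≥ 2 * n * 2 := Nat.mul_le_mul_left _ (by omega)
          omega
      rcases hc2 with rfl | rfl
      · left
        have h0 : i.val = 0 := by omega
        have : i = 0 := (ZMod.val_eq_zero i).1 h0
        subst this
        rfl
      · right
        have h0 : i.val = n := by omega
        have : i = (n : ZMod (2 * n)) := by
          have h5 := ZMod.natCast_zmod_val i
          rw [h0] at h5
          exact h5.symm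
        rw [Set.mem_singleton_iff]
        apply Subtype.ext
        show a i = a n
        rw [this]

section loc

open Matrix Cfsg.Agent.Lib.Helper46

variable {F : Type*} [Field F] [Fintype F]

theorem mk_two (hodd : Odd (Fintype.card F)) (S : Sylow 2 (SpecialLinearGroup (Fin 2) F)) :
    mk 2 (Subgroup.normalizer ((S : Subgroup (SpecialLinearGroup (Fin 2) F)) : Set (SpecialLinearGroup (Fin 2) F))) = 4 := by
  classical
  have hodd' : Fintype.card F % 2 = 1 := Nat.odd_iff.1 hodd
  have hfin := finite_SL2 (F := F)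
  have h2 := two_ne_zero_of_odd (F := F) hodd'
  obtain ⟨k, hk, ⟨e⟩⟩ := Cfsg.Agent.S0261.result hodd S
  have hne0 : NeZero (2 ^ k) := ⟨by positivity⟩
  obtain ⟨A, W, hAS, hWS, hgen, hWA, hoA, hoW, hcard⟩ :=
    quat_package (S : Subgroup (SpecialLinearGroup (Fin 2) F)) (2 ^ k) e
  have h4 : 4 ∣ orderOf A := by
    obtain ⟨k', rfl⟩ : ∃ k', k = k' + 1 := ⟨k - 1, by omega⟩
    rw [hoA, pow_succ]; exact ⟨2 ^ k', by ring⟩
  by_cases h8 : orderOf A = 4
  · have hN := sylow2_normalizer_small hodd' S A W hAS hWS hgen hWA h8 hoW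
    have hS8 : Nat.card (S : Subgroup (SpecialLinearGroup (Fin 2) F)) = 8 := by
      rw [hcard]; omega
    have hSN : (S : Subgroup (SpecialLinearGroup (Fin 2) F)) ≤ Subgroup.normalizer
        ((S : Subgroup (SpecialLinearGroup (Fin 2) F)) : Set (SpecialLinearGroup (Fin 2) F)) :=
      Subgroup.le_normalizer
    have sq4 : ∀ X : SpecialLinearGroup (Fin 2) F, orderOf X = 4 → X * X = negOne := by
      intro X hX
      have h4 : X ^ 4 = 1 := by rw [← hX]; exact pow_orderOf_eq_one X
      have h5 : (X * X) * (X * X) = 1 := by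
        rw [← h4, pow_succ, pow_succ, pow_succ, pow_one, mul_assoc, mul_assoc, mul_assoc]
      rcases eq_one_or_negOne_of_mem_center _ (mem_center_of_sq_eq_one h2 _ h5) with h | h
      · exfalso
        have h6 : orderOf X ∣ 2 := orderOf_dvd_of_pow_eq_one (by rw [pow_two]; exact h)
        rw [hX] at h6
        omega
      · exact h
    have hW4 : orderOf W = 4 := by simpa using hoW 0
    obtain ⟨u, hu1, hu2⟩ := exists_q8_normalizer h2 A W (sq4 A h8) (sq4 W hW4) hWA
    have huS : ∀ s ∈ ((S : Subgroup (SpecialLinearGroup (Fin 2) F)) : Set (SpecialLinearGroup (Fin 2) F)),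
        u * s * u⁻¹ ∈ ((S : Subgroup (SpecialLinearGroup (Fin 2) F)) : Set (SpecialLinearGroup (Fin 2) F)) := by
      intro s hs
      have hpow : ∀ j : ℕ, u * A ^ j * u⁻¹ = W ^ j := by
        intro j
        rw [← hu1, conj_pow]
      obtain ⟨j, rfl | rfl⟩ := hgen s hs
      · rw [hpow]
        exact (S : Subgroup (SpecialLinearGroup (Fin 2) F)).pow_mem hWS j
      · have h7 : u * (A ^ j * W) * u⁻¹ = (u * A ^ j * u⁻¹) * (u * W * u⁻¹) := by group
        rw [h7, hpow, hu2]
        exact (S : Subgroup (SpecialLinearGroup (Fin 2) F)).mul_mem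
          ((S : Subgroup (SpecialLinearGroup (Fin 2) F)).pow_mem hWS j)
          ((S : Subgroup (SpecialLinearGroup (Fin 2) F)).mul_mem hAS hWS)
    have huN : u ∈ Subgroup.normalizer
        ((S : Subgroup (SpecialLinearGroup (Fin 2) F)) : Set (SpecialLinearGroup (Fin 2) F)) :=
      Subgroup.mem_normalizer_fintype huS
    apply mk_two_of_card24 (by rw [hN]; omega)
      ((S : Subgroup (SpecialLinearGroup (Fin 2) F)).subgroupOf (Subgroup.normalizer
        ((S : Subgroup (SpecialLinearGroup (Fin 2) F)) : Set (SpecialLinearGroup (Fin 2) F))))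
    · rw [Nat.card_congr (Subgroup.subgroupOfEquivOfLe hSN).toEquiv]
      exact hS8
    · -- `S ≤ N'`
      have hAc : (⟨A, hSN hAS⟩ : Subgroup.normalizer
          ((S : Subgroup (SpecialLinearGroup (Fin 2) F)) : Set (SpecialLinearGroup (Fin 2) F)))
          ∈ commutator _ := by
        have h9 := Subgroup.commutator_mem_commutator
          (Subgroup.mem_top (⟨u, huN⟩ : Subgroup.normalizer
          ((S : Subgroup (SpecialLinearGroup (Fin 2) F)) : Set (SpecialLinearGroup (Fin 2) F))))
          (Subgroup.mem_top (⟨W, hSN hWS⟩ : Subgroup.normalizer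
          ((S : Subgroup (SpecialLinearGroup (Fin 2) F)) : Set (SpecialLinearGroup (Fin 2) F))))
        rw [← commutator_def] at h9
        convert h9 using 1
        apply Subtype.ext
        simp only [commutatorElement_def, Subgroup.coe_mul, Subgroup.coe_inv]
        rw [hu2]
        group
      have hWc : (⟨W, hSN hWS⟩ : Subgroup.normalizer
          ((S : Subgroup (SpecialLinearGroup (Fin 2) F)) : Set (SpecialLinearGroup (Fin 2) F)))
          ∈ commutator _ := by
        have h9 := Subgroup.commutator_mem_commutator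
          (Subgroup.mem_top (⟨u, huN⟩ : Subgroup.normalizer
          ((S : Subgroup (SpecialLinearGroup (Fin 2) F)) : Set (SpecialLinearGroup (Fin 2) F))))
          (Subgroup.mem_top (⟨A, hSN hAS⟩ : Subgroup.normalizer
          ((S : Subgroup (SpecialLinearGroup (Fin 2) F)) : Set (SpecialLinearGroup (Fin 2) F))))
        rw [← commutator_def] at h9
        have h10 := Subgroup.mul_mem _ h9 hAc
        convert h10 using 1
        apply Subtype.ext
        simp only [commutatorElement_def, Subgroup.coe_mul, Subgroup.coe_inv]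
        rw [hu1]
        group
      intro s hs
      have hs' : (s : SpecialLinearGroup (Fin 2) F) ∈ S := Subgroup.mem_subgroupOf.1 hs
      obtain ⟨j, hj | hj⟩ := hgen _ hs'
      · have : s = (⟨A, hSN hAS⟩ : Subgroup.normalizer
          ((S : Subgroup (SpecialLinearGroup (Fin 2) F)) : Set (SpecialLinearGroup (Fin 2) F))) ^ j := by
          apply Subtype.ext
          rw [hj]; rfl
        rw [this]
        exact Subgroup.pow_mem _ hAc j
      · have : s = (⟨A, hSN hAS⟩ : Subgroup.normalizer
          ((S : Subgroup (SpecialLinearGroup (Fin 2) F)) : Set (SpecialLinearGroup (Fin 2) F))) ^ j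
            * ⟨W, hSN hWS⟩ := by
          apply Subtype.ext
          rw [hj]; rfl
        rw [this]
        exact Subgroup.mul_mem _ (Subgroup.pow_mem _ hAc j) hWc
  · have hN := sylow2_normalizer_big hodd' S A W hAS hWS hgen hWA h4 h8 hoW
    rw [mk_congr (MulEquiv.subgroupCongr hN) 2, mk_congr e 2]
    exact two_quat _

end loc

end Cfsg.Agent.Lib.Helper89.MCK
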