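import Cfsg.Agent.Lib.Helper89.MCK.COMB
import Cfsg.Agent.Lib.Helper89.MCK.B2
import Cfsg.Agent.Lib.Helper89.MCK.B3
import Cfsg.Agent.Lib.Helper89.MCK.B4
import Cfsg.Agent.Lib.Helper89.MCK.B5
import Cfsg.Agent.Lib.Helper89.MCK.TOR
import Cfsg.Agent.Lib.Helper89.MCK.BOR
import Cfsg.Agent.Lib.Helper89.MCK.TWO
import Cfsg.Agent.Lib.Helper89.MCK.TRIV
import Cfsg.Agent.Lib.Helper46.SL2CharMaster
import Cfsg.Agent.Lib.Helper44.Borel
import Cfsg.Agent.Lib.Helper82.Ortho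
import Cfsg.Agent.S0133
import Cfsg.Agent.S2325
import Cfsg.Agent.S2430

set_option autoImplicit false
set_option linter.unusedSectionVars false
set_option linter.unusedVariables false

namespace Cfsg.Agent.Lib.Helper89.MCK

open Matrix Cfsg Cfsg.Agent.Lib.Helper46 Cfsg.Agent.Lib.Helper19

section gside

variable {F : Type*} [Field F] [Fintype F] [DecidableEq F]

theorem asm_ncard_le {G : Type*} [Group G] [Finite G] (Tset : Set (IrrCharacter G)) (B : Set (G → ℂ))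
    (hB : ∀ χ ∈ B, IsIrrCharacter G χ) (h : ∀ χ ∈ Tset, χ.1 ∈ B) : Tset.ncard ≤ B.ncard := by
  have hfin : Finite (IrrCharacter G) := Cfsg.Agent.Lib.Helper82.finite_irrCharacter
  have hBfin : B.Finite := by
    have h1 : ({χ : G → ℂ | IsIrrCharacter G χ}).Finite :=
      Set.finite_coe_iff.mp (show Finite ↥{χ : G → ℂ | IsIrrCharacter G χ} from hfin)
    exact h1.subset hB
  rw [← Set.ncard_image_of_injective Tset Subtype.val_injective]
  apply Set.ncard_le_ncard _ hBfin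
  rintro _ ⟨χ, hχ, rfl⟩
  exact h χ hχ

theorem asm_charDegree {G : Type*} [Group G] {χ : G → ℂ} {n : ℕ} (h : χ 1 = n) : charDegree χ = n := by
  unfold charDegree
  rw [h]
  simp

/-- the number of irreducible characters of `SL₂(q)` of degree prime to `ℓ` -/
theorem mk_G (hodd : Fintype.card F % 2 = 1) (ℓ : ℕ) :
    mk ℓ (SpecialLinearGroup (Fin 2) F) =
      (if ℓ ∣ 1 then 0 else 1) + (if ℓ ∣ Fintype.card F then 0 else 1) +
      (if ℓ ∣ Fintype.card F + 1 then 0 else (Fintype.card F - 3) / 2) +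
      (if ℓ ∣ Fintype.card F - 1 then 0 else (Fintype.card F - 1) / 2) +
      (if ℓ ∣ (Fintype.card F + 1) / 2 then 0 else 2) +
      (if ℓ ∣ (Fintype.card F - 1) / 2 then 0 else 2) := by
  obtain ⟨X₀, h⟩ := exists_NS (F := F) hodd
  obtain ⟨θ₀, hθ₀⟩ := exists_theta0 h hodd
  have hq1 : 1 < Fintype.card F := Fintype.one_lt_card
  have hfinG : Finite (SpecialLinearGroup (Fin 2) F) := inferInstance
  have hfin : Finite (IrrCharacter (SpecialLinearGroup (Fin 2) F)) :=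
    Cfsg.Agent.Lib.Helper82.finite_irrCharacter
  let T : Fin 6 → Set (IrrCharacter (SpecialLinearGroup (Fin 2) F)) :=
    ![{χ | charDegree χ.1 = 1 ∧ χ.1 = 1},
      {χ | charDegree χ.1 = Fintype.card F ∧ χ.1 = St},
      {χ | charDegree χ.1 = Fintype.card F + 1 ∧ ∃ α : MulChar F ℂ, α ≠ α⁻¹ ∧ χ.1 = RS α},
      {χ | charDegree χ.1 + 1 = Fintype.card F ∧ ∃ (θ : Subgroup.zpowers X₀ →* ℂˣ) (α : MulChar F ℂ),
        θ⁻¹ ≠ θ ∧ Compat h α θ ∧ χ.1 = PI X₀ α θ},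
      {χ | 2 * charDegree χ.1 = Fintype.card F + 1 ∧ Vals h χ.1 (fun a => alpha0 F a) (fun _ => 0)},
      {χ | 2 * charDegree χ.1 + 1 = Fintype.card F ∧ Vals h χ.1 (fun _ => 0) (fun t => ((θ₀ t : ℂˣ) : ℂ))}]
  have key := comb (I := IrrCharacter (SpecialLinearGroup (Fin 2) F)) (fun χ => charDegree χ.1) T
    ![1, 1, (Fintype.card F - 3) / 2, (Fintype.card F - 1) / 2, 2, 2] ![1, Fintype.card F, Fintype.card F + 1, Fintype.card F - 1, (Fintype.card F + 1) / 2, (Fintype.card F - 1) / 2]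
    ?_ ?_ ?_ ?_ ℓ
  · unfold mk
    rw [key]
    simp [Fin.sum_univ_succ]
    ac_rfl
  · -- cover
    intro χ
    obtain ⟨n, hn, hcases⟩ := master_nat hodd h hθ₀ χ.1 χ.2
    have hd := asm_charDegree hn
    rcases hcases with ⟨h0, h1, V⟩ | ⟨h0, h1, V⟩ | ⟨h0, α₁, h1, h2, V⟩ | ⟨h0, θ₁, α₁, h1, h2, h3, V⟩ |
      ⟨h0, V⟩ | ⟨h0, V⟩
    · exact ⟨0, hd.trans h0, h1⟩
    · exact ⟨1, hd.trans h0, h1⟩
    · exact ⟨2, hd.trans h0, α₁, h1, h2⟩
    · exact ⟨3, by rw [hd]; exact h0, θ₁, α₁, h1, h2, h3⟩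
    · exact ⟨4, by rw [hd]; exact h0, V⟩
    · exact ⟨5, by rw [hd]; exact h0, V⟩
  · -- bounds
    intro i
    fin_cases i
    · show ({χ : IrrCharacter (SpecialLinearGroup (Fin 2) F) | charDegree χ.1 = 1 ∧ χ.1 = 1}).ncard ≤ 1
      rw [Set.ncard_le_one_iff]
      intro a b ha hb
      exact Subtype.ext (ha.2.trans hb.2.symm)
    · show ({χ : IrrCharacter (SpecialLinearGroup (Fin 2) F) | charDegree χ.1 = Fintype.card F ∧ χ.1 = St}).ncard ≤ 1
      rw [Set.ncard_le_one_iff]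
      intro a b ha hb
      exact Subtype.ext (ha.2.trans hb.2.symm)
    · show ({χ : IrrCharacter (SpecialLinearGroup (Fin 2) F) | charDegree χ.1 = Fintype.card F + 1 ∧
        ∃ α : MulChar F ℂ, α ≠ α⁻¹ ∧ χ.1 = RS α}).ncard ≤ (Fintype.card F - 3) / 2
      have h1 := bound_RS (F := F) hodd
      have h2 := asm_ncard_le ({χ : IrrCharacter (SpecialLinearGroup (Fin 2) F) | charDegree χ.1 = Fintype.card F + 1 ∧
        ∃ α : MulChar F ℂ, α ≠ α⁻¹ ∧ χ.1 = RS α})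
        {χ : SpecialLinearGroup (Fin 2) F → ℂ | ∃ α : MulChar F ℂ, α ≠ α⁻¹ ∧ χ = RS α}
        (by rintro χ ⟨α, hα, rfl⟩; exact RS_irr α hα) (by rintro χ ⟨-, hχ⟩; exact hχ)
      omega
    · show ({χ : IrrCharacter (SpecialLinearGroup (Fin 2) F) | charDegree χ.1 + 1 = Fintype.card F ∧
        ∃ (θ : Subgroup.zpowers X₀ →* ℂˣ) (α : MulChar F ℂ),
        θ⁻¹ ≠ θ ∧ Compat h α θ ∧ χ.1 = PI X₀ α θ}).ncard ≤ (Fintype.card F - 1) / 2
      have h1 := bound_PI (F := F) hodd h hθ₀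
      have h2 := asm_ncard_le ({χ : IrrCharacter (SpecialLinearGroup (Fin 2) F) | charDegree χ.1 + 1 = Fintype.card F ∧
        ∃ (θ : Subgroup.zpowers X₀ →* ℂˣ) (α : MulChar F ℂ),
        θ⁻¹ ≠ θ ∧ Compat h α θ ∧ χ.1 = PI X₀ α θ})
        {χ : SpecialLinearGroup (Fin 2) F → ℂ | ∃ (θ : Subgroup.zpowers X₀ →* ℂˣ) (α : MulChar F ℂ),
          θ⁻¹ ≠ θ ∧ Compat h α θ ∧ χ = PI X₀ α θ}
        (by rintro χ ⟨θ, α, hθ, hc, rfl⟩; exact PI_irr h hodd hc hθ) (by rintro χ ⟨-, hχ⟩; exact hχ)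
      omega
    · show ({χ : IrrCharacter (SpecialLinearGroup (Fin 2) F) | 2 * charDegree χ.1 = Fintype.card F + 1 ∧
        Vals h χ.1 (fun a => alpha0 F a) (fun _ => 0)}).ncard ≤ 2
      have h1 := bound_half_plus (F := F) hodd h
      have h2 := asm_ncard_le ({χ : IrrCharacter (SpecialLinearGroup (Fin 2) F) | 2 * charDegree χ.1 = Fintype.card F + 1 ∧
        Vals h χ.1 (fun a => alpha0 F a) (fun _ => 0)})
        {χ : SpecialLinearGroup (Fin 2) F → ℂ | IsIrrCharacter (SpecialLinearGroup (Fin 2) F) χ ∧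
          Vals h χ (fun a => alpha0 F a) (fun _ => 0)}
        (by rintro χ ⟨hχ, -⟩; exact hχ) (by rintro χ ⟨-, hχ⟩; exact ⟨χ.2, hχ⟩)
      omega
    · show ({χ : IrrCharacter (SpecialLinearGroup (Fin 2) F) | 2 * charDegree χ.1 + 1 = Fintype.card F ∧
        Vals h χ.1 (fun _ => 0) (fun t => ((θ₀ t : ℂˣ) : ℂ))}).ncard ≤ 2
      have h1 := bound_half_minus (F := F) hodd h hθ₀
      have h2 := asm_ncard_le ({χ : IrrCharacter (SpecialLinearGroup (Fin 2) F) | 2 * charDegree χ.1 + 1 = Fintype.card F ∧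
        Vals h χ.1 (fun _ => 0) (fun t => ((θ₀ t : ℂˣ) : ℂ))})
        {χ : SpecialLinearGroup (Fin 2) F → ℂ | IsIrrCharacter (SpecialLinearGroup (Fin 2) F) χ ∧
          Vals h χ (fun _ => 0) (fun t => ((θ₀ t : ℂˣ) : ℂ))}
        (by rintro χ ⟨hχ, -⟩; exact hχ) (by rintro χ ⟨-, hχ⟩; exact ⟨χ.2, hχ⟩)
      omega
  · -- degrees
    intro i
    fin_cases i
    · rintro χ ⟨h0, -⟩; exact h0
    · rintro χ ⟨h0, -⟩; exact h0
    · rintro χ ⟨h0, -⟩; exact h0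
    · rintro χ ⟨h0, -⟩
      show charDegree χ.1 = Fintype.card F - 1
      omega
    · rintro χ ⟨h0, -⟩
      show charDegree χ.1 = (Fintype.card F + 1) / 2
      omega
    · rintro χ ⟨h0, -⟩
      show charDegree χ.1 = (Fintype.card F - 1) / 2
      omega
  · -- total
    rw [Cfsg.Agent.S0133.result, Cfsg.Agent.S2325.result (Nat.odd_iff.2 hodd)]
    simp [Fin.sum_univ_succ]
    omega

end gside

theorem main {F : Type*} [Field F] [Fintype F] (hodd : Odd (Fintype.card F)) (ℓ : ℕ) [hℓ : Fact ℓ.Prime]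
    (S : Sylow ℓ (SpecialLinearGroup (Fin 2) F)) :
    mk ℓ (SpecialLinearGroup (Fin 2) F) =
      mk ℓ (Subgroup.normalizer ((S : Subgroup (SpecialLinearGroup (Fin 2) F)) : Set (SpecialLinearGroup (Fin 2) F))) := by
  classical
  have hodd' : Fintype.card F % 2 = 1 := Nat.odd_iff.1 hodd
  have hq1 : 1 < Fintype.card F := Fintype.one_lt_card
  have hp := hℓ.out
  have hℓ2 : 2 ≤ ℓ := hp.two_le
  by_cases hdiv : ℓ ∣ Nat.card (SpecialLinearGroup (Fin 2) F)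
  swap
  · exact (mk_triv ℓ hdiv S).symm
  rw [Cfsg.Agent.Lib.Helper44.card_SL2] at hdiv
  have hG := mk_G (F := F) hodd' ℓ
  have h1 : ¬ ℓ ∣ 1 := by
    intro h; have := Nat.le_of_dvd one_pos h; omega
  rw [if_neg h1] at hG
  generalize hq : Fintype.card F = q at *
  obtain ⟨t, rfl⟩ : ∃ t, q = 2 * t + 1 := ⟨q / 2, by omega⟩
  have e1 : (2 * t + 1 + 1) / 2 = t + 1 := by omega
  have e2 : (2 * t + 1 - 1) / 2 = t := by omega
  have e3 : (2 * t + 1 - 3) / 2 = t - 1 := by omega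
  have e4 : 2 * t + 1 - 1 = 2 * t := by omega
  have e5 : 2 * t + 1 + 1 = 2 * (t + 1) := by omega
  rw [e1, e2, e3, e4, e5] at hG
  rw [e4, e5] at hdiv
  by_cases hl2 : ℓ = 2
  · subst hl2
    rw [mk_two (by rw [hq]; exact hodd) S, hG]
    have a1 : ¬ 2 ∣ 2 * t + 1 := by omega
    have a2 : 2 ∣ 2 * (t + 1) := ⟨_, rfl⟩
    have a3 : 2 ∣ 2 * t := ⟨_, rfl⟩
    rw [if_neg a1, if_pos a2, if_pos a3]
    by_cases a4 : 2 ∣ t
    · have a5 : ¬ 2 ∣ t + 1 := by omega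
      rw [if_pos a4, if_neg a5]
    · have a5 : 2 ∣ t + 1 := by omega
      rw [if_neg a4, if_pos a5]
  have hcop2 : Nat.Coprime ℓ 2 := (Nat.coprime_primes hp Nat.prime_two).2 hl2
  have d2 : ∀ m, ℓ ∣ 2 * m ↔ ℓ ∣ m := fun m =>
    ⟨fun h => hcop2.dvd_of_dvd_mul_left h, fun h => Dvd.dvd.mul_left h 2⟩
  simp only [d2] at hG
  have hcases : ℓ ∣ t + 1 ∨ ℓ ∣ t ∨ ℓ ∣ 2 * t + 1 := by
    rcases hp.dvd_mul.1 hdiv with h | h
    · exact Or.inl ((d2 _).1 h)
    · rcases hp.dvd_mul.1 h with h | h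
      · exact Or.inr (Or.inl ((d2 _).1 h))
      · exact Or.inr (Or.inr h)
  have ht1 : 1 ≤ t := by omega
  rcases hcases with h | h | h
  · -- ℓ ∣ q + 1
    have b1 : ¬ ℓ ∣ t := by
      intro h'
      exact h1 ((Nat.dvd_add_right h').1 h)
    have b2 : ¬ ℓ ∣ 2 * t + 1 := by
      intro h'
      have : ℓ ∣ 2 * (t + 1) := Dvd.dvd.mul_left h 2
      have h3 : ℓ ∣ 2 * (t + 1) - (2 * t + 1) := Nat.dvd_sub this h'
      have : 2 * (t + 1) - (2 * t + 1) = 1 := by omega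
      rw [this] at h3
      exact h1 h3
    simp only [if_neg b2, if_pos h, if_neg b1] at hG
    have hS := (Cfsg.Agent.S2430.result (by rw [hq]; exact hodd) ℓ hl2 S).2
      (by rw [hq, e5]; exact Dvd.dvd.mul_left h 2)
    have hT := mk_torus (by rw [hq]; exact hodd) ℓ hl2 S (Fintype.card F + 1)
      (by rw [hq, e5]; exact Dvd.dvd.mul_left h 2) hS.1 hS.2.1 hS.2.2
    rw [hq] at hT
    omega
  · -- ℓ ∣ q - 1
    have b1 : ¬ ℓ ∣ t + 1 := by
      intro h'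
      exact h1 ((Nat.dvd_add_right h).1 h')
    have b2 : ¬ ℓ ∣ 2 * t + 1 := by
      intro h'
      have : ℓ ∣ 2 * t := Dvd.dvd.mul_left h 2
      exact h1 ((Nat.dvd_add_right this).1 h')
    simp only [if_neg b2, if_neg b1, if_pos h] at hG
    have hS := (Cfsg.Agent.S2430.result (by rw [hq]; exact hodd) ℓ hl2 S).1
      (by rw [hq, e4]; exact Dvd.dvd.mul_left h 2)
    have hT := mk_torus (by rw [hq]; exact hodd) ℓ hl2 S (Fintype.card F - 1)
      (by rw [hq, e4]; exact Dvd.dvd.mul_left h 2) hS.1 hS.2.1 hS.2.2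
    rw [hq] at hT
    omega
  · -- ℓ ∣ q
    have b1 : ¬ ℓ ∣ t + 1 := by
      intro h'
      have : ℓ ∣ 2 * (t + 1) := Dvd.dvd.mul_left h' 2
      have h3 : ℓ ∣ 2 * (t + 1) - (2 * t + 1) := Nat.dvd_sub this h
      have : 2 * (t + 1) - (2 * t + 1) = 1 := by omega
      rw [this] at h3
      exact h1 h3
    have b2 : ¬ ℓ ∣ t := by
      intro h'
      have : ℓ ∣ 2 * t := Dvd.dvd.mul_left h' 2
      exact h1 ((Nat.dvd_add_right this).1 h)
    simp only [if_pos h, if_neg b1, if_neg b2] at hG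
    obtain ⟨p, hchar⟩ := CharP.exists F
    have hpp : Fact p.Prime := ⟨CharP.char_is_prime F p⟩
    obtain ⟨n, -, hn⟩ := FiniteField.card F p
    have hlp : ℓ = p := by
      rw [← hq, hn] at h
      exact (Nat.prime_dvd_prime_iff_eq hp hpp.out).1 (hp.dvd_of_dvd_pow h)
    subst hlp
    have hB := mk_borel (by rw [hq]; exact hodd) ℓ S
    rw [hq] at hB
    omega

end Cfsg.Agent.Lib.Helper89.MCK
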