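import Mathlib

set_option autoImplicit false
set_option linter.unusedSectionVars false
set_option linter.unusedVariables false

namespace Cfsg.Agent.Lib.Helper89.MCK

/-- COMB.  Six types covering `I`, with upper bounds adding up to `|I|`: count fibrewise. -/
theorem comb {I : Type*} [Finite I] (deg : I → ℕ) (T : Fin 6 → Set I) (b d : Fin 6 → ℕ)
    (hcov : ∀ χ, ∃ i, χ ∈ T i) (hb : ∀ i, (T i).ncard ≤ b i) (hd : ∀ i, ∀ χ ∈ T i, deg χ = d i)
    (hsum : Nat.card I = ∑ i, b i) (ℓ : ℕ) :
    Nat.card {χ : I // ¬ ℓ ∣ deg χ} = ∑ i, if ℓ ∣ d i then 0 else b i := by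
  classical
  haveI := Fintype.ofFinite I
  choose t ht using hcov
  have hfib_le : ∀ i, (Finset.univ.filter (fun χ => t χ = i)).card ≤ b i := by
    intro i
    refine le_trans ?_ (hb i)
    rw [← Set.ncard_coe_finset]
    apply Set.ncard_le_ncard _ (Set.toFinite _)
    intro χ hχ
    simp only [Finset.coe_filter, Finset.mem_univ, true_and, Set.mem_setOf_eq] at hχ
    exact hχ ▸ ht χ
  have hfib_sum : ∑ i, (Finset.univ.filter (fun χ => t χ = i)).card = ∑ i, b i := by
    rw [← hsum, Nat.card_eq_fintype_card, ← Finset.card_univ]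
    exact (Finset.card_eq_sum_card_fiberwise (f := t) (t := Finset.univ)
      (fun x _ => Finset.mem_coe.2 (Finset.mem_univ _))).symm
  have hfib_eq : ∀ i, (Finset.univ.filter (fun χ => t χ = i)).card = b i := by
    intro i
    exact (Finset.sum_eq_sum_iff_of_le (fun i _ => hfib_le i)).1 hfib_sum i (Finset.mem_univ i)
  rw [Nat.card_eq_fintype_card, Fintype.card_subtype]
  rw [Finset.card_eq_sum_card_fiberwise (f := t) (t := Finset.univ)
    (fun x _ => Finset.mem_coe.2 (Finset.mem_univ _))]
  apply Finset.sum_congr rfl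
  intro i _
  split_ifs with h
  · rw [Finset.card_eq_zero, Finset.filter_eq_empty_iff]
    intro χ hχ hti
    simp only [Finset.mem_filter, Finset.mem_univ, true_and] at hχ
    apply hχ
    rw [hd i χ (hti ▸ ht χ)]
    exact h
  · rw [← hfib_eq i]
    congr 1
    ext χ
    simp only [Finset.mem_filter, Finset.mem_univ, true_and, and_iff_right_iff_imp]
    intro hti
    rw [hd i χ (hti ▸ ht χ)]
    exact h

end Cfsg.Agent.Lib.Helper89.MCK
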