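import Mathlib
import Cfsg.Prelude.Def_Blocks

/-! Ladder MCK (S2436: McKay equality for `SL₂(q)`, `q` odd): definitions. -/

set_option autoImplicit false

namespace Cfsg.Agent.Lib.Helper89.MCK

/-- number of irreducible characters of degree prime to `ℓ` -/
noncomputable def mk (ℓ : ℕ) (X : Type*) [Group X] : ℕ :=
  Nat.card {χ : Cfsg.IrrCharacter X // ¬ ℓ ∣ Cfsg.charDegree (χ : X → ℂ)}

end Cfsg.Agent.Lib.Helper89.MCK
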